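import Mathlib
import Cfsg.Agent.Lib.Helper14.MinSp2.Defs

/-! Piece [T4] of the S2142 farm (helper14): number of zeros of a quadratic form over `F_2`. -/

set_option autoImplicit false
set_option linter.unusedSectionVars false

namespace Cfsg.Agent.Lib.Helper12.MinSp2

open Matrix Cfsg.Agent.Lib.Helper13 Cfsg.Agent.Lib.Helper5 Cfsg.Agent.Lib.Helper14.MinSp
open Cfsg.Agent.Lib.Helper14.MinSp2

variable {F : Type*} [Field F] [Fintype F] {m : ℕ}

lemma f2_cases (hF : Fintype.card F = 2) (a : F) : a = 0 ∨ a = 1 := by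
  classical
  by_contra h
  push Not at h
  have h3 : ({0, 1, a} : Finset F).card = 3 := by
    rw [Finset.card_eq_three]
    exact ⟨0, 1, a, zero_ne_one, h.1.symm, h.2.symm, rfl⟩
  have := Finset.card_le_univ ({0, 1, a} : Finset F)
  omega

lemma f2_two (hF : Fintype.card F = 2) : (1 : F) + 1 = 0 := by
  rcases f2_cases hF (1 + 1 : F) with h | h
  · exact h
  · simp at h

lemma f2_add_self (hF : Fintype.card F = 2) (a : F) : a + a = 0 := by
  have := f2_two hF
  linear_combination a * this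

lemma f2_neg (hF : Fintype.card F = 2) (a : F) : -a = a := by
  have := f2_add_self hF a
  linear_combination -this

open Classical in
/-- The nontrivial additive character of `F_2`. -/
noncomputable def chi (a : F) : ℤ := if a = 0 then 1 else -1

lemma chi_add (hF : Fintype.card F = 2) (a b : F) : chi (a + b) = chi a * chi b := by
  rcases f2_cases hF a with rfl | rfl <;> rcases f2_cases hF b with rfl | rfl <;>
    simp [chi, f2_two hF]

lemma chi_mul_self (a : F) : chi a * chi a = 1 := by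
  unfold chi
  split_ifs <;> simp

lemma isQuad_zero {Q : (Fin m ⊕ Fin m → F) → F} (hQ : IsQuad Q) : Q 0 = 0 := by
  have h := hQ 0 0
  rw [sympForm_zero_left, add_zero, add_zero] at h
  exact (left_eq_add.mp h)

lemma exists_symp_one (hF : Fintype.card F = 2) (z : Fin m ⊕ Fin m → F) (hz : z ≠ 0) :
    ∃ y, Cfsg.sympForm m F y z = 1 := by
  by_contra hcon
  push Not at hcon
  apply hz
  apply sympForm_nondeg
  intro v
  rw [sympForm_swap]
  rcases f2_cases hF (Cfsg.sympForm m F v z) with h | h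
  · rw [h, neg_zero]
  · exact absurd h (hcon v)

lemma sum_chi_symp (hF : Fintype.card F = 2) (z : Fin m ⊕ Fin m → F) (hz : z ≠ 0) :
    ∑ x : Fin m ⊕ Fin m → F, chi (Cfsg.sympForm m F x z) = 0 := by
  obtain ⟨y, hy⟩ := exists_symp_one hF z hz
  have h1 : ∑ x : Fin m ⊕ Fin m → F, chi (Cfsg.sympForm m F (x + y) z)
      = ∑ x : Fin m ⊕ Fin m → F, chi (Cfsg.sympForm m F x z) :=
    Fintype.sum_equiv (Equiv.addRight y) _ _ (fun x => rfl)
  have h2 : ∑ x : Fin m ⊕ Fin m → F, chi (Cfsg.sympForm m F (x + y) z)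
      = - ∑ x : Fin m ⊕ Fin m → F, chi (Cfsg.sympForm m F x z) := by
    rw [← Finset.sum_neg_distrib]
    refine Finset.sum_congr rfl fun x _ => ?_
    rw [sympForm_add_left, hy, chi_add hF]
    simp [chi]
  omega

lemma card_V (hF : Fintype.card F = 2) : Fintype.card (Fin m ⊕ Fin m → F) = 2 ^ (2 * m) := by
  simp [hF, two_mul]

lemma gauss_sq (hF : Fintype.card F = 2) (Q : (Fin m ⊕ Fin m → F) → F) (hQ : IsQuad Q) :
    (∑ x : Fin m ⊕ Fin m → F, chi (Q x)) * (∑ x : Fin m ⊕ Fin m → F, chi (Q x))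
      = 2 ^ (2 * m) := by
  classical
  rw [Finset.sum_mul_sum]
  have h1 : ∀ x : Fin m ⊕ Fin m → F, ∑ y : Fin m ⊕ Fin m → F, chi (Q x) * chi (Q y)
      = ∑ z : Fin m ⊕ Fin m → F, chi (Q z) * chi (Cfsg.sympForm m F x z) := by
    intro x
    rw [← Fintype.sum_equiv (Equiv.addLeft x) (fun z => chi (Q x) * chi (Q (x + z))) _
      (fun z => rfl)]
    refine Finset.sum_congr rfl fun z _ => ?_
    rw [hQ x z, chi_add hF, chi_add hF]
    have := chi_mul_self (Q x)
    linear_combination (chi (Q z) * chi (Cfsg.sympForm m F x z)) * this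
  rw [Finset.sum_congr rfl (fun x _ => h1 x), Finset.sum_comm]
  simp_rw [← Finset.mul_sum]
  rw [Finset.sum_eq_single 0]
  · rw [isQuad_zero hQ]
    simp only [sympForm_zero_right, chi, if_true, Finset.sum_const, Finset.card_univ, card_V hF]
    simp
  · intro z _ hz
    rw [sum_chi_symp hF z hz, mul_zero]
  · intro h
    exact absurd (Finset.mem_univ _) h

lemma gauss_eq (hF : Fintype.card F = 2) (Q : (Fin m ⊕ Fin m → F) → F) :
    (∑ x : Fin m ⊕ Fin m → F, chi (Q x)) = 2 * (Nat.card {x // Q x = 0} : ℤ) - 2 ^ (2 * m) := by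
  classical
  have h1 : ∀ x : Fin m ⊕ Fin m → F, chi (Q x) = 2 * (if Q x = 0 then 1 else 0) - 1 := by
    intro x
    unfold chi
    split_ifs <;> simp
  rw [Finset.sum_congr rfl (fun x _ => h1 x), Finset.sum_sub_distrib, ← Finset.mul_sum,
    Finset.sum_boole]
  simp only [Finset.sum_const, Finset.card_univ, card_V hF]
  rw [Nat.card_eq_fintype_card, Fintype.card_subtype]
  simp

/-- [T4] -/
theorem card_zeros (hF : Fintype.card F = 2) (hm : 1 ≤ m) (Q : (Fin m ⊕ Fin m → F) → F)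
    (hQ : IsQuad Q) :
    Nat.card {x // Q x = 0} = 2 ^ (2 * m - 1) + 2 ^ (m - 1) ∨
      Nat.card {x // Q x = 0} = 2 ^ (2 * m - 1) - 2 ^ (m - 1) := by
  have h1 := gauss_sq hF Q hQ
  rw [gauss_eq hF Q] at h1
  obtain ⟨k, rfl⟩ : ∃ k, m = k + 1 := ⟨m - 1, by omega⟩
  have e1 : 2 * (k + 1) - 1 = 2 * k + 1 := by omega
  have e2 : k + 1 - 1 = k := by omega
  rw [e1, e2]
  set Z := Nat.card {x // Q x = 0} with hZ
  have h2 : ((Z : ℤ) - 2 ^ (2 * k + 1) - 2 ^ k) * ((Z : ℤ) - 2 ^ (2 * k + 1) + 2 ^ k) = 0 := by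
    have e3 : (2 : ℤ) ^ (2 * (k + 1)) = 2 * 2 ^ (2 * k + 1) := by
      rw [show 2 * (k + 1) = (2 * k + 1) + 1 by ring, pow_succ]; ring
    have e4 : (2 : ℤ) ^ (2 * k + 1) = 2 * (2 ^ k * 2 ^ k) := by
      rw [pow_succ, two_mul, pow_add]; ring
    rw [e3] at h1
    have : 4 * (((Z : ℤ) - 2 ^ (2 * k + 1) - 2 ^ k) * ((Z : ℤ) - 2 ^ (2 * k + 1) + 2 ^ k)) = 0 := by
      linear_combination h1 + 2 * e4
    omega
  rcases mul_eq_zero.mp h2 with h | h
  · left
    have : (Z : ℤ) = ((2 ^ (2 * k + 1) + 2 ^ k : ℕ) : ℤ) := by push_cast; linarith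
    exact_mod_cast this
  · right
    have : ((Z + 2 ^ k : ℕ) : ℤ) = ((2 ^ (2 * k + 1) : ℕ) : ℤ) := by push_cast; linarith
    have h3 : Z + 2 ^ k = 2 ^ (2 * k + 1) := by exact_mod_cast this
    omega

end Cfsg.Agent.Lib.Helper12.MinSp2
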