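import Mathlib
import Cfsg.Agent.Lib.Helper12.MinSp2.T4

/-! Piece [T2] of the S2142 farm (helper14): the case of no transvection in `H`. -/

set_option autoImplicit false
set_option linter.unusedSectionVars false

namespace Cfsg.Agent.Lib.Helper12.MinSp2

open Matrix Cfsg.Agent.Lib.Helper13 Cfsg.Agent.Lib.Helper5 Cfsg.Agent.Lib.Helper14.MinSp
open Cfsg.Agent.Lib.Helper14.MinSp2

variable {F : Type*} [Field F] [Fintype F] {m : ℕ}

local notation "V" => (Fin m ⊕ Fin m → F)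
local notation "Sp" => Matrix.symplecticGroup (Fin m) F

lemma f2_vadd_self (hF : Fintype.card F = 2) (w : V) : w + w = 0 := by
  funext i
  exact f2_add_self hF (w i)

lemma symp_comm2 (hF : Fintype.card F = 2) (u w : V) :
    Cfsg.sympForm m F u w = Cfsg.sympForm m F w u := by
  rw [sympForm_swap, f2_neg hF]

/-- Uniqueness of the parameter when `tv u 1 ∉ H`. -/
lemma sieg_unique (hF : Fintype.card F = 2) (H : Subgroup Sp) (u w : V)
    (hu : tv u 1 ∉ H) (huw : Cfsg.sympForm m F u w = 0) {a a' : F}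
    (ha : sieg u w a ∈ H) (ha' : sieg u w a' ∈ H) : a = a' := by
  by_contra hne
  apply hu
  have h := H.mul_mem ha ha'
  rw [Cfsg.Agent.Lib.Helper24.MinSp.sieg_mul u w w huw huw, f2_vadd_self hF, sympForm_self,
    add_zero, Cfsg.Agent.Lib.Helper24.MinSp.sieg_zero] at h
  have : a + a' = 1 := by
    rcases f2_cases hF a with rfl | rfl <;> rcases f2_cases hF a' with rfl | rfl <;> simp_all
  rwa [this] at h

lemma sieg_symm_zero (hF : Fintype.card F = 2) (u w : V) (huw : Cfsg.sympForm m F u w = 0) :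
    sieg u w 0 = sieg w u 0 := by
  have hwu : Cfsg.sympForm m F w u = 0 := by rw [symp_comm2 hF, huw]
  apply sp_ext
  intro x
  rw [Cfsg.Agent.Lib.Helper24.MinSp.sieg_mulVec u w huw,
    Cfsg.Agent.Lib.Helper24.MinSp.sieg_mulVec w u hwu]
  module

lemma sieg_mul_mem (H : Subgroup Sp) (u w w' : V) (huw : Cfsg.sympForm m F u w = 0)
    (huw' : Cfsg.sympForm m F u w' = 0) {a a' : F}
    (ha : sieg u w a ∈ H) (ha' : sieg u w' a' ∈ H) :
    sieg u (w + w') (a + a' + Cfsg.sympForm m F w' w) ∈ H := by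
  rw [← Cfsg.Agent.Lib.Helper24.MinSp.sieg_mul u w w' huw huw']
  exact H.mul_mem ha ha'

/-- Symmetry of the parameter. -/
lemma sieg_symm_mem (hF : Fintype.card F = 2) (H : Subgroup Sp) (u w : V)
    (hu : tv u 1 ∉ H) (huw : Cfsg.sympForm m F u w = 0)
    (hex : ∃ a, sieg w u a ∈ H) {c : F} (hc : sieg u w c ∈ H) : sieg w u c ∈ H := by
  have hwu : Cfsg.sympForm m F w u = 0 := by rw [symp_comm2 hF, huw]
  rcases f2_cases hF c with rfl | rfl
  · rwa [← sieg_symm_zero hF u w huw]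
  · obtain ⟨c', hc'⟩ := hex
    rcases f2_cases hF c' with rfl | rfl
    · rw [← sieg_symm_zero hF u w huw] at hc'
      exact absurd (sieg_unique hF H u w hu huw hc' hc) zero_ne_one
    · exact hc'

lemma star_empty_aux (hF : Fintype.card F = 2)
    (H : Subgroup Sp)
    (h0 : ∀ u : V, u ≠ 0 → tv u 1 ∉ H)
    (hstar : ∀ u w : V, u ≠ 0 → Cfsg.sympForm m F u w = 0 → ∃ a, sieg u w a ∈ H)
    (a1 a2 b1 b2 : V) (ha1 : a1 ≠ 0) (ha2 : a2 ≠ 0) (ha3 : a1 + a2 ≠ 0)
    (hb1 : b1 ≠ 0) (hb2 : b2 ≠ 0) (hb3 : b1 + b2 ≠ 0)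
    (h11 : Cfsg.sympForm m F a1 b1 = 0) (h12 : Cfsg.sympForm m F a1 b2 = 0)
    (h21 : Cfsg.sympForm m F a2 b1 = 0) (h22 : Cfsg.sympForm m F a2 b2 = 0)
    (hb : Cfsg.sympForm m F b2 b1 = 0) (ha : Cfsg.sympForm m F a2 a1 = 1) : False := by
  have h31 : Cfsg.sympForm m F (a1 + a2) b1 = 0 := by rw [sympForm_add_left, h11, h21, add_zero]
  have h32 : Cfsg.sympForm m F (a1 + a2) b2 = 0 := by rw [sympForm_add_left, h12, h22, add_zero]
  -- rows
  have row : ∀ a : V, a ≠ 0 → Cfsg.sympForm m F a b1 = 0 → Cfsg.sympForm m F a b2 = 0 →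
      ∃ c1 c2 : F, sieg b1 a c1 ∈ H ∧ sieg b2 a c2 ∈ H ∧ sieg (b1 + b2) a (c1 + c2) ∈ H := by
    intro a hane e1 e2
    obtain ⟨c1, hc1⟩ := hstar a b1 hane e1
    obtain ⟨c2, hc2⟩ := hstar a b2 hane e2
    have e3 : Cfsg.sympForm m F a (b1 + b2) = 0 := by rw [sympForm_add_right, e1, e2, add_zero]
    have hc3 := sieg_mul_mem H a b1 b2 e1 e2 hc1 hc2
    rw [hb, add_zero] at hc3
    refine ⟨c1, c2, ?_, ?_, ?_⟩
    · exact sieg_symm_mem hF H a b1 (h0 a hane) e1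
        (hstar b1 a hb1 (by rw [symp_comm2 hF, e1])) hc1
    · exact sieg_symm_mem hF H a b2 (h0 a hane) e2
        (hstar b2 a hb2 (by rw [symp_comm2 hF, e2])) hc2
    · exact sieg_symm_mem hF H a (b1 + b2) (h0 a hane) e3
        (hstar (b1 + b2) a hb3 (by rw [symp_comm2 hF, e3])) hc3
  obtain ⟨c11, c12, m11, m12, m13⟩ := row a1 ha1 h11 h12
  obtain ⟨c21, c22, m21, m22, m23⟩ := row a2 ha2 h21 h22
  obtain ⟨c31, c32, m31, m32, m33⟩ := row (a1 + a2) ha3 h31 h32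
  -- columns
  have col : ∀ b : V, b ≠ 0 → Cfsg.sympForm m F b a1 = 0 → Cfsg.sympForm m F b a2 = 0 →
      ∀ c1 c2 c3 : F, sieg b a1 c1 ∈ H → sieg b a2 c2 ∈ H → sieg b (a1 + a2) c3 ∈ H →
        c3 = c1 + c2 + 1 := by
    intro b hbne e1 e2 c1 c2 c3 k1 k2 k3
    have k := sieg_mul_mem H b a1 a2 e1 e2 k1 k2
    rw [ha] at k
    exact sieg_unique hF H b (a1 + a2) (h0 b hbne)
      (by rw [sympForm_add_right, e1, e2, add_zero]) k3 k
  have q1 := col b1 hb1 (by rw [symp_comm2 hF, h11]) (by rw [symp_comm2 hF, h21]) _ _ _ m11 m21 m31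
  have q2 := col b2 hb2 (by rw [symp_comm2 hF, h12]) (by rw [symp_comm2 hF, h22]) _ _ _ m12 m22 m32
  have q3 := col (b1 + b2) hb3
    (by rw [symp_comm2 hF, sympForm_add_right, h11, h12, add_zero])
    (by rw [symp_comm2 hF, sympForm_add_right, h21, h22, add_zero]) _ _ _ m13 m23 m33
  have h2 := f2_two hF
  have : (1 : F) = 0 := by linear_combination q1 + q2 - q3 + h2
  exact one_ne_zero this

/-- [T2] -/
theorem star_empty (hF : Fintype.card F = 2) (hm : 3 ≤ m)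
    (H : Subgroup (Matrix.symplecticGroup (Fin m) F))
    (h0 : ∀ u : Fin m ⊕ Fin m → F, u ≠ 0 → tv u 1 ∉ H)
    (hstar : ∀ u w : Fin m ⊕ Fin m → F, u ≠ 0 → Cfsg.sympForm m F u w = 0 → ∃ a, sieg u w a ∈ H) :
    False := by
  classical
  let i0 : Fin m := ⟨0, by omega⟩
  let i1 : Fin m := ⟨1, by omega⟩
  let i2 : Fin m := ⟨2, by omega⟩
  have n01 : i0 ≠ i1 := by simp [i0, i1, Fin.ext_iff]
  have n02 : i0 ≠ i2 := by simp [i0, i2, Fin.ext_iff]
  have n12 : i1 ≠ i2 := by simp [i1, i2, Fin.ext_iff]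
  refine star_empty_aux hF H h0 hstar (eL i0) (eR i0) (eL i1) (eL i2) (eL_ne_zero i0) ?_ ?_
    (eL_ne_zero i1) (eL_ne_zero i2) ?_ (sympForm_eL_eL _ _) (sympForm_eL_eL _ _) ?_ ?_
    (sympForm_eL_eL _ _) ?_
  · intro h
    have := congrFun h (Sum.inr i0)
    simp [eR] at this
  · intro h
    have := congrFun h (Sum.inl i0)
    simp [eL, eR] at this
  · intro h
    have := congrFun h (Sum.inl i1)
    simp [eL, n12] at this
  · rw [sympForm_eL_right]
    simp [eR, n01]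
  · rw [sympForm_eL_right]
    simp [eR, n02]
  · rw [sympForm_eL_right]
    simp [eR]

end Cfsg.Agent.Lib.Helper12.MinSp2
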