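import Mathlib
import Cfsg.Agent.Lib.Helper12.MinSp2.T4

/-! Piece [T6] of the S2142 farm (helper14): a quadratic form of minus type over `F_2`. -/

set_option autoImplicit false
set_option linter.unusedSectionVars false

namespace Cfsg.Agent.Lib.Helper12.MinSp2

open Matrix Cfsg.Agent.Lib.Helper13 Cfsg.Agent.Lib.Helper5 Cfsg.Agent.Lib.Helper14.MinSp
open Cfsg.Agent.Lib.Helper14.MinSp2

variable {F : Type*} [Field F] [Fintype F] {m : ℕ}

/-- The standard hyperbolic quadratic form. -/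
def Q0 (x : Fin m ⊕ Fin m → F) : F := ∑ i : Fin m, x (Sum.inl i) * x (Sum.inr i)

lemma isQuad_Q0 (hF : Fintype.card F = 2) : IsQuad (Q0 : (Fin m ⊕ Fin m → F) → F) := by
  intro x y
  unfold Q0
  rw [sympForm_eq_sum, ← Finset.sum_add_distrib, ← Finset.sum_add_distrib]
  refine Finset.sum_congr rfl fun i _ => ?_
  have h2 := f2_two hF
  simp only [Pi.add_apply]
  linear_combination (x (Sum.inl i) * y (Sum.inr i)) * h2

lemma isQuad_shift {Q : (Fin m ⊕ Fin m → F) → F} (hQ : IsQuad Q) (a : Fin m ⊕ Fin m → F) :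
    IsQuad (fun x => Q x + Cfsg.sympForm m F x a) := by
  intro x y
  simp only [sympForm_add_left, hQ x y]
  ring

lemma card_shift (hF : Fintype.card F = 2) {Q : (Fin m ⊕ Fin m → F) → F} (hQ : IsQuad Q)
    (a : Fin m ⊕ Fin m → F) (ha : Q a = 1) :
    Nat.card {x // Q x + Cfsg.sympForm m F x a = 0} = 2 ^ (2 * m) - Nat.card {x // Q x = 0} := by
  classical
  have e : {x // Q x + Cfsg.sympForm m F x a = 0} ≃ {x // ¬ Q x = 0} := by
    refine Equiv.subtypeEquiv (Equiv.addRight a) fun x => ?_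
    simp only [Equiv.coe_addRight]
    rw [hQ x a, ha]
    rcases f2_cases hF (Q x + Cfsg.sympForm m F x a) with h | h
    · have : Q x + 1 + Cfsg.sympForm m F x a = 1 := by linear_combination h
      rw [this]
      simp [h]
    · have : Q x + 1 + Cfsg.sympForm m F x a = 0 := by linear_combination h + f2_two hF
      rw [this]
      simp [h]
  rw [Nat.card_congr e, Nat.card_eq_fintype_card, Nat.card_eq_fintype_card,
    Fintype.card_subtype_compl, card_V hF]

/-- [T6] -/
theorem exists_minus (hF : Fintype.card F = 2) (hm : 1 ≤ m) :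
    ∃ Q : (Fin m ⊕ Fin m → F) → F, IsQuad Q ∧
      Nat.card {x // Q x = 0} = 2 ^ (2 * m - 1) - 2 ^ (m - 1) := by
  classical
  rcases card_zeros hF hm Q0 (isQuad_Q0 hF) with h | h
  · let i0 : Fin m := ⟨0, hm⟩
    let a : Fin m ⊕ Fin m → F := Pi.single (Sum.inl i0) 1 + Pi.single (Sum.inr i0) 1
    have ha : Q0 a = 1 := by
      simp [Q0, a, Pi.single_apply]
    refine ⟨fun x => Q0 x + Cfsg.sympForm m F x a, isQuad_shift (isQuad_Q0 hF) a, ?_⟩
    rw [card_shift hF (isQuad_Q0 hF) a ha, h]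
    have e1 : 2 ^ (2 * m) = 2 * 2 ^ (2 * m - 1) := by
      rw [← pow_succ']
      congr 1
      omega
    omega
  · exact ⟨Q0, isQuad_Q0 hF, h⟩

end Cfsg.Agent.Lib.Helper12.MinSp2
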